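/-
Normal form of the nine matrices, and that they are involutions (helper18).
-/
import Cfsg.Agent.Lib.Fi78.Data

set_option autoImplicit false
set_option maxRecDepth 100000
set_option maxHeartbeats 0

namespace Cfsg.Agent.Lib.Fi78

theorem good_a : Good ga := by unfold Good; decide +kernel
theorem good_b : Good gb := by unfold Good; decide +kernel
theorem good_c : Good gc := by unfold Good; decide +kernel
theorem good_d : Good gd := by unfold Good; decide +kernel
theorem good_e : Good ge := by unfold Good; decide +kernel
theorem good_f : Good gf := by unfold Good; decide +kernel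
theorem good_g : Good gg := by unfold Good; decide +kernel
theorem good_h : Good gh := by unfold Good; decide +kernel
theorem good_i : Good gi := by unfold Good; decide +kernel
theorem good_id : Good idC := by unfold Good; decide +kernel

theorem id_entries : ∀ i < 78, ∀ j < 78, dgb XX (dgb RR idC i) j = if i = j then 1 else 0 := by decide +kernel

theorem a_entry : dgb XX (dgb RR ga 1) 0 = 12 := by decide +kernel

theorem sq_a : mm ga ga = idC := Nat.eq_of_beq_eq_true (by decide +kernel)
theorem sq_b : mm gb gb = idC := Nat.eq_of_beq_eq_true (by decide +kernel)
theorem sq_c : mm gc gc = idC := Nat.eq_of_beq_eq_true (by decide +kernel)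
theorem sq_d : mm gd gd = idC := Nat.eq_of_beq_eq_true (by decide +kernel)
theorem sq_e : mm ge ge = idC := Nat.eq_of_beq_eq_true (by decide +kernel)
theorem sq_f : mm gf gf = idC := Nat.eq_of_beq_eq_true (by decide +kernel)
theorem sq_g : mm gg gg = idC := Nat.eq_of_beq_eq_true (by decide +kernel)
theorem sq_h : mm gh gh = idC := Nat.eq_of_beq_eq_true (by decide +kernel)
theorem sq_i : mm gi gi = idC := Nat.eq_of_beq_eq_true (by decide +kernel)

end Cfsg.Agent.Lib.Fi78
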