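/-
Commuting pairs of generators, part 0 (helper18).
-/
import Cfsg.Agent.Lib.Fi78.Data

set_option autoImplicit false
set_option maxRecDepth 100000
set_option maxHeartbeats 0

namespace Cfsg.Agent.Lib.Fi78

theorem cm_a_c : mm ga gc = mm gc ga := Nat.eq_of_beq_eq_true (by decide +kernel)
theorem cm_a_d : mm ga gd = mm gd ga := Nat.eq_of_beq_eq_true (by decide +kernel)
theorem cm_a_e : mm ga ge = mm ge ga := Nat.eq_of_beq_eq_true (by decide +kernel)
theorem cm_a_f : mm ga gf = mm gf ga := Nat.eq_of_beq_eq_true (by decide +kernel)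
theorem cm_a_g : mm ga gg = mm gg ga := Nat.eq_of_beq_eq_true (by decide +kernel)
theorem cm_a_h : mm ga gh = mm gh ga := Nat.eq_of_beq_eq_true (by decide +kernel)
theorem cm_a_i : mm ga gi = mm gi ga := Nat.eq_of_beq_eq_true (by decide +kernel)
theorem cm_b_d : mm gb gd = mm gd gb := Nat.eq_of_beq_eq_true (by decide +kernel)
theorem cm_b_e : mm gb ge = mm ge gb := Nat.eq_of_beq_eq_true (by decide +kernel)
theorem cm_b_f : mm gb gf = mm gf gb := Nat.eq_of_beq_eq_true (by decide +kernel)
theorem cm_b_g : mm gb gg = mm gg gb := Nat.eq_of_beq_eq_true (by decide +kernel)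
theorem cm_b_h : mm gb gh = mm gh gb := Nat.eq_of_beq_eq_true (by decide +kernel)
theorem cm_b_i : mm gb gi = mm gi gb := Nat.eq_of_beq_eq_true (by decide +kernel)
theorem cm_c_e : mm gc ge = mm ge gc := Nat.eq_of_beq_eq_true (by decide +kernel)

end Cfsg.Agent.Lib.Fi78
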