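/-
Commuting pairs of generators, part 1 (helper18).
-/
import Cfsg.Agent.Lib.Fi78.Data

set_option autoImplicit false
set_option maxRecDepth 100000
set_option maxHeartbeats 0

namespace Cfsg.Agent.Lib.Fi78

theorem cm_c_f : mm gc gf = mm gf gc := Nat.eq_of_beq_eq_true (by decide +kernel)
theorem cm_c_g : mm gc gg = mm gg gc := Nat.eq_of_beq_eq_true (by decide +kernel)
theorem cm_c_h : mm gc gh = mm gh gc := Nat.eq_of_beq_eq_true (by decide +kernel)
theorem cm_c_i : mm gc gi = mm gi gc := Nat.eq_of_beq_eq_true (by decide +kernel)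
theorem cm_d_f : mm gd gf = mm gf gd := Nat.eq_of_beq_eq_true (by decide +kernel)
theorem cm_d_g : mm gd gg = mm gg gd := Nat.eq_of_beq_eq_true (by decide +kernel)
theorem cm_d_i : mm gd gi = mm gi gd := Nat.eq_of_beq_eq_true (by decide +kernel)
theorem cm_e_g : mm ge gg = mm gg ge := Nat.eq_of_beq_eq_true (by decide +kernel)
theorem cm_e_h : mm ge gh = mm gh ge := Nat.eq_of_beq_eq_true (by decide +kernel)
theorem cm_e_i : mm ge gi = mm gi ge := Nat.eq_of_beq_eq_true (by decide +kernel)
theorem cm_f_h : mm gf gh = mm gh gf := Nat.eq_of_beq_eq_true (by decide +kernel)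
theorem cm_f_i : mm gf gi = mm gi gf := Nat.eq_of_beq_eq_true (by decide +kernel)
theorem cm_g_h : mm gg gh = mm gh gg := Nat.eq_of_beq_eq_true (by decide +kernel)
theorem cm_g_i : mm gg gi = mm gi gg := Nat.eq_of_beq_eq_true (by decide +kernel)

end Cfsg.Agent.Lib.Fi78
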