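/-
The braid relations of the graph (helper18).
-/
import Cfsg.Agent.Lib.Fi78.Data

set_option autoImplicit false
set_option maxRecDepth 100000
set_option maxHeartbeats 0

namespace Cfsg.Agent.Lib.Fi78

theorem br_a_b : mm (mm ga gb) ga = mm (mm gb ga) gb := Nat.eq_of_beq_eq_true (by decide +kernel)
theorem br_b_c : mm (mm gb gc) gb = mm (mm gc gb) gc := Nat.eq_of_beq_eq_true (by decide +kernel)
theorem br_c_d : mm (mm gc gd) gc = mm (mm gd gc) gd := Nat.eq_of_beq_eq_true (by decide +kernel)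
theorem br_d_e : mm (mm gd ge) gd = mm (mm ge gd) ge := Nat.eq_of_beq_eq_true (by decide +kernel)
theorem br_d_h : mm (mm gd gh) gd = mm (mm gh gd) gh := Nat.eq_of_beq_eq_true (by decide +kernel)
theorem br_e_f : mm (mm ge gf) ge = mm (mm gf ge) gf := Nat.eq_of_beq_eq_true (by decide +kernel)
theorem br_f_g : mm (mm gf gg) gf = mm (mm gg gf) gg := Nat.eq_of_beq_eq_true (by decide +kernel)
theorem br_h_i : mm (mm gh gi) gh = mm (mm gi gh) gi := Nat.eq_of_beq_eq_true (by decide +kernel)

end Cfsg.Agent.Lib.Fi78
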