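/-
The three further relations (helper18).
-/
import Cfsg.Agent.Lib.Fi78.Data

set_option autoImplicit false
set_option maxRecDepth 100000
set_option maxHeartbeats 0

namespace Cfsg.Agent.Lib.Fi78

/-- The tenth power of a code by squaring. -/
noncomputable def pow10 (P : ℕ) : ℕ :=
  force P fun P1 => force (mm P1 P1) fun P2 => force (mm P2 P2) fun P4 => force (mm P4 P4) fun P8 => mm P8 P2

/-- The ninth power of a code by squaring. -/
noncomputable def pow9 (P : ℕ) : ℕ :=
  force P fun P1 => force (mm P1 P1) fun P2 => force (mm P2 P2) fun P4 => force (mm P4 P4) fun P8 => mm P8 P1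

theorem w1_rel : pow10 (mm (mm (mm (mm (mm (mm (mm (mm gd gc) gb) gd) ge) gf) gd) gh) gi) = idC := Nat.eq_of_beq_eq_true (by decide +kernel)
theorem w2_rel : pow9 (mm (mm (mm (mm (mm (mm ga gb) gc) gd) ge) gf) gh) = idC := Nat.eq_of_beq_eq_true (by decide +kernel)
theorem w3_rel : pow9 (mm (mm (mm (mm (mm (mm gb gc) gd) ge) gf) gg) gh) = idC := Nat.eq_of_beq_eq_true (by decide +kernel)

end Cfsg.Agent.Lib.Fi78
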