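/-
Packed matrices of degree 78 over the field with thirteen elements (helper18).
-/
import Mathlib

set_option autoImplicit false

namespace Cfsg.Agent.Lib.Fi78

/-- The base of the entries. -/
def XX : ℕ := 65536

/-- The base of the rows. -/
def RR : ℕ := 0x1000000000000000000000000000000000000000000000000000000000000000000000000000000000000000000000000000000000000000000000000000000000000000000000000000000000000000000000000000000000000000000000000000000000000000000000000000000000000000000000000000000000000000000000000000000000000000000000000000000000000000000000000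

theorem RR_eq : RR = XX ^ 78 := by norm_num [RR, XX]

/-- A digit. -/
def dgb (b x j : ℕ) : ℕ := x / b ^ j % b

/-- Forcing the evaluation of a number. -/
noncomputable def force {α : Type} (n : ℕ) (f : ℕ → α) : α := Nat.rec (f 0) (fun m _ => f (Nat.succ m)) n

theorem force_eq {α : Type} (n : ℕ) (f : ℕ → α) : force n f = f n := by
  cases n <;> rfl

/-- A number given by its digits. -/
def rep (b : ℕ) (f : ℕ → ℕ) : ℕ → ℕ
  | 0 => 0
  | n + 1 => f 0 + b * rep b (fun j => f (j + 1)) n

theorem dgb_zero (b x : ℕ) : dgb b x 0 = x % b := by simp [dgb]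

theorem dgb_succ (b x j : ℕ) : dgb b x (j + 1) = dgb b (x / b) j := by
  simp only [dgb]
  rw [pow_succ', Nat.div_div_eq_div_mul]

theorem rep_lt {b : ℕ} (hb : 0 < b) : ∀ (n : ℕ) (f : ℕ → ℕ), (∀ j < n, f j < b) → rep b f n < b ^ n := by
  intro n
  induction n with
  | zero => intro f _; simp [rep]
  | succ n ih =>
    intro f hf
    have h1 := ih (fun j => f (j + 1)) (fun j hj => hf _ (by omega))
    have h2 := hf 0 (by omega)
    simp only [rep]
    rw [pow_succ']
    nlinarith

theorem dgb_rep {b : ℕ} (hb : 0 < b) : ∀ (n : ℕ) (f : ℕ → ℕ), (∀ j < n, f j < b) → ∀ j < n, dgb b (rep b f n) j = f j := by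
  intro n
  induction n with
  | zero => intro f _ j hj; omega
  | succ n ih =>
    intro f hf j hj
    have h0 := hf 0 (by omega)
    cases j with
    | zero =>
      rw [dgb_zero]
      simp only [rep]
      rw [Nat.add_mul_mod_self_left, Nat.mod_eq_of_lt h0]
    | succ j =>
      rw [dgb_succ]
      simp only [rep]
      rw [Nat.add_mul_div_left _ _ hb, Nat.div_eq_of_lt h0, zero_add]
      exact ih _ (fun t ht => hf _ (by omega)) j (by omega)

theorem rep_dgb {b : ℕ} (hb : 0 < b) : ∀ (n x : ℕ), x < b ^ n → rep b (dgb b x) n = x := by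
  intro n
  induction n with
  | zero => intro x hx; simp at hx; simp [rep, hx]
  | succ n ih =>
    intro x hx
    have e : (fun j => dgb b x (j + 1)) = dgb b (x / b) := by
      funext j
      exact dgb_succ b x j
    simp only [rep]
    rw [e, ih (x / b) (by
      rw [pow_succ'] at hx
      exact Nat.div_lt_of_lt_mul hx), dgb_zero]
    exact Nat.mod_add_div x b

/-- A combination of the rows of `B` with the digits of `r`. -/
noncomputable def comb (k : ℕ) : ℕ → ℕ → ℕ → ℕ :=
  Nat.rec (motive := fun _ => ℕ → ℕ → ℕ → ℕ) (fun _ _ acc => acc)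
    (fun _ ih B r acc =>
      force (Nat.add acc (Nat.mul (Nat.mod r 65536) (Nat.mod B RR))) fun acc' =>
        force (Nat.div r 65536) fun r' => force (Nat.div B RR) fun B' => ih B' r' acc') k

theorem comb_zero (B r acc : ℕ) : comb 0 B r acc = acc := rfl

theorem comb_succ (k B r acc : ℕ) : comb (k + 1) B r acc =
    force (Nat.add acc (Nat.mul (Nat.mod r 65536) (Nat.mod B RR))) fun acc' =>
        force (Nat.div r 65536) fun r' => force (Nat.div B RR) fun B' => comb k B' r' acc' := rfl

/-- Reduction of the digits modulo thirteen. -/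
noncomputable def red (k : ℕ) : ℕ → ℕ :=
  Nat.rec (motive := fun _ => ℕ → ℕ) (fun _ => 0)
    (fun _ ih x => force (Nat.div x 65536) fun x' =>
      Nat.add (Nat.mod (Nat.mod x 65536) 13) (Nat.mul 65536 (ih x'))) k

theorem red_zero (x : ℕ) : red 0 x = 0 := rfl

theorem red_succ (k x : ℕ) : red (k + 1) x = force (Nat.div x 65536) fun x' =>
      Nat.add (Nat.mod (Nat.mod x 65536) 13) (Nat.mul 65536 (red k x')) := rfl

/-- A row times a matrix. -/
noncomputable def rm (r B : ℕ) : ℕ := red 78 (comb 78 B r 0)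

/-- The rows of a product. -/
noncomputable def mmG (k : ℕ) : ℕ → ℕ → ℕ :=
  Nat.rec (motive := fun _ => ℕ → ℕ → ℕ) (fun _ _ => 0)
    (fun _ ih A B => force (rm (Nat.mod A RR) B) fun v => force (Nat.div A RR) fun A' =>
      Nat.add v (Nat.mul RR (ih A' B))) k

theorem mmG_zero (A B : ℕ) : mmG 0 A B = 0 := rfl

theorem mmG_succ (k A B : ℕ) : mmG (k + 1) A B = force (rm (Nat.mod A RR) B) fun v => force (Nat.div A RR) fun A' =>
      Nat.add v (Nat.mul RR (mmG k A' B)) := rfl

/-- The product of matrices. -/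
noncomputable def mm (A B : ℕ) : ℕ := force A fun A' => force B fun B' => mmG 78 A' B'

theorem XX_pos : 0 < XX := by norm_num [XX]

theorem RR_pos : 0 < RR := by
  rw [RR_eq]
  exact pow_pos XX_pos _

theorem comb_eq : ∀ (k B r acc : ℕ), comb k B r acc =
    acc + ∑ t ∈ Finset.range k, dgb XX r t * dgb RR B t := by
  intro k
  induction k with
  | zero => intro B r acc; simp [comb_zero]
  | succ k ih =>
    intro B r acc
    rw [comb_succ]
    simp only [force_eq]
    show comb k (B / RR) (r / XX) (acc + (r % XX) * (B % RR)) = _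
    rw [ih, Finset.sum_range_succ', dgb_zero, dgb_zero]
    have e : ∀ t, dgb XX r (t + 1) * dgb RR B (t + 1) = dgb XX (r / XX) t * dgb RR (B / RR) t := by
      intro t
      rw [dgb_succ, dgb_succ]
    simp only [e]
    ring

theorem red_eq : ∀ (k x : ℕ), red k x = rep XX (fun j => dgb XX x j % 13) k := by
  intro k
  induction k with
  | zero => intro x; rfl
  | succ k ih =>
    intro x
    have e : (fun j => dgb XX (x / XX) j % 13) = (fun j => dgb XX x (j + 1) % 13) := by
      funext j
      rw [dgb_succ]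
    rw [red_succ]
    simp only [force_eq, rep]
    rw [ih]
    show (x % XX) % 13 + XX * rep XX (fun j => dgb XX (x / XX) j % 13) k = _
    rw [dgb_zero, e]

theorem mmG_eq : ∀ (k A B : ℕ), mmG k A B = rep RR (fun i => rm (dgb RR A i) B) k := by
  intro k
  induction k with
  | zero => intro A B; rfl
  | succ k ih =>
    intro A B
    have e : (fun i => rm (dgb RR (A / RR) i) B) = (fun i => rm (dgb RR A (i + 1)) B) := by
      funext i
      rw [dgb_succ]
    rw [mmG_succ]
    simp only [force_eq, rep]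
    rw [ih]
    show rm (A % RR) B + RR * rep RR (fun i => rm (dgb RR (A / RR) i) B) k = _
    rw [dgb_zero, e]

/-- The linear combination of numbers given by digits. -/
theorem sum_rep (b : ℕ) : ∀ (n : ℕ) (s : Finset ℕ) (c : ℕ → ℕ) (g : ℕ → ℕ → ℕ),
    ∑ t ∈ s, c t * rep b (g t) n = rep b (fun j => ∑ t ∈ s, c t * g t j) n := by
  intro n
  induction n with
  | zero => intro s c g; simp [rep]
  | succ n ih =>
    intro s c g
    simp only [rep]
    rw [← ih s c (fun t j => g t (j + 1)), mul_comm b, Finset.sum_mul]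
    rw [← Finset.sum_add_distrib]
    apply Finset.sum_congr rfl
    intro t _
    ring

/-- A number whose rows have digits below thirteen. -/
def Good (M : ℕ) : Prop := ∀ i < 78, dgb RR M i < RR ∧ ∀ j < 78, dgb XX (dgb RR M i) j < 13

theorem row_rep {r : ℕ} (h : r < RR) : rep XX (dgb XX r) 78 = r := rep_dgb XX_pos 78 r (by rw [← RR_eq]; exact h)

theorem rm_spec {r B : ℕ} (hr : r < RR ∧ ∀ j < 78, dgb XX r j < 13) (hB : Good B) {j : ℕ} (hj : j < 78) :
    dgb XX (rm r B) j = (∑ t ∈ Finset.range 78, dgb XX r t * dgb XX (dgb RR B t) j) % 13 := by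
  have h1 : comb 78 B r 0 = rep XX (fun j => ∑ t ∈ Finset.range 78, dgb XX r t * dgb XX (dgb RR B t) j) 78 := by
    rw [comb_eq, zero_add, ← sum_rep]
    apply Finset.sum_congr rfl
    intro t ht
    rw [row_rep (hB t (Finset.mem_range.mp ht)).1]
  have hbd : ∀ j < 78, (∑ t ∈ Finset.range 78, dgb XX r t * dgb XX (dgb RR B t) j) < XX := by
    intro j hj
    have : ∑ t ∈ Finset.range 78, dgb XX r t * dgb XX (dgb RR B t) j ≤ ∑ t ∈ Finset.range 78, 12 * 12 := by
      apply Finset.sum_le_sum
      intro t ht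
      have ht' := Finset.mem_range.mp ht
      have a1 := hr.2 t ht'
      have a2 := (hB t ht').2 j hj
      exact Nat.mul_le_mul (by omega) (by omega)
    simp only [Finset.sum_const, Finset.card_range, smul_eq_mul] at this
    have e : XX = 65536 := rfl
    omega
  have hlt : ∀ j < 78, dgb XX (comb 78 B r 0) j % 13 < XX := by
    intro j _
    have e : XX = 65536 := rfl
    have := Nat.mod_lt (dgb XX (comb 78 B r 0) j) (by norm_num : 13 > 0)
    omega
  rw [rm, red_eq, dgb_rep XX_pos 78 _ hlt j hj, h1, dgb_rep XX_pos 78 _ hbd j hj]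

theorem rm_lt (r B : ℕ) : rm r B < RR := by
  rw [rm, red_eq]
  rw [RR_eq]
  apply rep_lt XX_pos
  intro j _
  have e : XX = 65536 := rfl
  have := Nat.mod_lt (dgb XX (comb 78 B r 0) j) (by norm_num : 13 > 0)
  omega

theorem dgb_mm (A B : ℕ) {i : ℕ} (hi : i < 78) : dgb RR (mm A B) i = rm (dgb RR A i) B := by
  rw [mm, force_eq, force_eq, mmG_eq, dgb_rep RR_pos 78 _ (fun t _ => rm_lt _ _) i hi]

theorem good_mm {A B : ℕ} (hA : Good A) (hB : Good B) : Good (mm A B) := by
  intro i hi
  rw [dgb_mm A B hi]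
  refine ⟨rm_lt _ _, fun j hj => ?_⟩
  rw [rm_spec (hA i hi) hB hj]
  exact Nat.mod_lt _ (by norm_num)

/-- The matrix of a code. -/
def toMat (M : ℕ) : Matrix (Fin 78) (Fin 78) (ZMod 13) :=
  Matrix.of fun i j => ((dgb XX (dgb RR M i) j : ℕ) : ZMod 13)

theorem toMat_mm {A B : ℕ} (hA : Good A) (hB : Good B) : toMat (mm A B) = toMat A * toMat B := by
  ext i j
  rw [Matrix.mul_apply]
  simp only [toMat, Matrix.of_apply]
  rw [dgb_mm A B i.2, rm_spec (hA i i.2) hB j.2, ZMod.natCast_mod]
  rw [Fin.sum_univ_eq_sum_range (fun t => ((dgb XX (dgb RR A i) t : ℕ) : ZMod 13) * ((dgb XX (dgb RR B t) j : ℕ) : ZMod 13)) 78]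
  push_cast
  rfl

/-- The normal form of a raw matrix. -/
noncomputable def norm (M : ℕ) : ℕ := rep RR (fun i => red 78 (dgb RR M i)) 78

theorem red_lt (x : ℕ) : red 78 x < RR := by
  rw [red_eq, RR_eq]
  apply rep_lt XX_pos
  intro j _
  have e : XX = 65536 := rfl
  have := Nat.mod_lt (dgb XX x j) (by norm_num : 13 > 0)
  omega

theorem good_norm (M : ℕ) : Good (norm M) := by
  intro i hi
  rw [norm, dgb_rep RR_pos 78 _ (fun t _ => red_lt _) i hi]
  refine ⟨red_lt _, fun j hj => ?_⟩
  rw [red_eq, dgb_rep XX_pos 78 _ (fun t _ => ?_) j hj]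
  · exact Nat.mod_lt _ (by norm_num)
  · have e : XX = 65536 := rfl
    have := Nat.mod_lt (dgb XX (dgb RR M i) t) (by norm_num : 13 > 0)
    omega

/-- Powers of a code. -/
noncomputable def powC (P Id k : ℕ) : ℕ :=
  Nat.rec (motive := fun _ => ℕ) Id (fun _ ih => force ih fun Q => mm Q P) k

theorem powC_zero (P Id : ℕ) : powC P Id 0 = Id := rfl

theorem powC_succ (P Id k : ℕ) : powC P Id (k + 1) = force (powC P Id k) fun Q => mm Q P := rfl

theorem powC_spec {P Id : ℕ} (hP : Good P) (hI : Good Id) (hI1 : toMat Id = 1) :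
    ∀ k, Good (powC P Id k) ∧ toMat (powC P Id k) = toMat P ^ k := by
  intro k
  induction k with
  | zero => exact ⟨hI, by simpa [powC_zero] using hI1⟩
  | succ k ih =>
    rw [powC_succ]
    simp only [force_eq]
    exact ⟨good_mm ih.1 hP, by rw [toMat_mm ih.1 hP, ih.2, pow_succ]⟩

end Cfsg.Agent.Lib.Fi78
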