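/-
The representation of the Fischer group Fi22 of degree 78 over the field with thirteen elements (helper18).
-/
import Cfsg.Agent.Lib.Fi78.Chk0
import Cfsg.Agent.Lib.Fi78.Chk1
import Cfsg.Agent.Lib.Fi78.Chk2
import Cfsg.Agent.Lib.Fi78.Chk3
import Cfsg.Agent.Lib.Fi78.Chk4
import Cfsg.Prelude.Def_Spor_Fi22

set_option autoImplicit false
set_option maxRecDepth 100000

namespace Cfsg.Agent.Lib.Fi78

open Cfsg.Spor

/-- The matrix with code `c` is `M`. -/
structure Rp (c : ℕ) (M : Matrix (Fin 78) (Fin 78) (ZMod 13)) : Prop where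
  good : Good c
  eq : toMat c = M

theorem Rp.mul {a b : ℕ} {A B : Matrix (Fin 78) (Fin 78) (ZMod 13)} (h1 : Rp a A) (h2 : Rp b B) :
    Rp (mm a b) (A * B) :=
  ⟨good_mm h1.good h2.good, by rw [toMat_mm h1.good h2.good, h1.eq, h2.eq]⟩

theorem toMat_idC : toMat idC = 1 := by
  ext i j
  simp only [toMat, Matrix.of_apply]
  rw [id_entries i i.2 j j.2]
  by_cases h : i = j
  · subst h; simp
  · have h' : (i : ℕ) ≠ j := fun e => h (Fin.ext e)
    simp [h, h']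

theorem rp_id : Rp idC 1 := ⟨good_id, toMat_idC⟩

theorem rp_of {c : ℕ} (h : Good c) : Rp c (toMat c) := ⟨h, rfl⟩

theorem rp_eq {a b : ℕ} {A B : Matrix (Fin 78) (Fin 78) (ZMod 13)} (h1 : Rp a A) (h2 : Rp b B) (h : a = b) : A = B := by
  rw [← h1.eq, ← h2.eq, h]

theorem pow10_spec {P : ℕ} {M : Matrix (Fin 78) (Fin 78) (ZMod 13)} (h : Rp P M) (e : pow10 P = idC) : M ^ 10 = 1 := by
  have e2 : mm (mm (mm (mm P P) (mm P P)) (mm (mm P P) (mm P P))) (mm P P) = idC := by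
    rw [← e, pow10]
    simp only [force_eq]
  have := rp_eq (((h.mul h).mul (h.mul h)).mul ((h.mul h).mul (h.mul h)) |>.mul (h.mul h)) rp_id e2
  rw [← this]
  noncomm_ring

theorem pow9_spec {P : ℕ} {M : Matrix (Fin 78) (Fin 78) (ZMod 13)} (h : Rp P M) (e : pow9 P = idC) : M ^ 9 = 1 := by
  have e2 : mm (mm (mm (mm P P) (mm P P)) (mm (mm P P) (mm P P))) P = idC := by
    rw [← e, pow9]
    simp only [force_eq]
  have := rp_eq (((h.mul h).mul (h.mul h)).mul ((h.mul h).mul (h.mul h)) |>.mul h) rp_id e2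
  rw [← this]
  noncomm_ring

/-- The code of a generator. -/
def Gc : Fi22.Gen → ℕ
  | .a => ga
  | .b => gb
  | .c => gc
  | .d => gd
  | .e => ge
  | .f => gf
  | .g => gg
  | .h => gh
  | .i => gi

theorem good_Gc (x : Fi22.Gen) : Good (Gc x) := by
  cases x
  · exact good_a
  · exact good_b
  · exact good_c
  · exact good_d
  · exact good_e
  · exact good_f
  · exact good_g
  · exact good_h
  · exact good_i

theorem sq_Gc (x : Fi22.Gen) : mm (Gc x) (Gc x) = idC := by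
  cases x
  · exact sq_a
  · exact sq_b
  · exact sq_c
  · exact sq_d
  · exact sq_e
  · exact sq_f
  · exact sq_g
  · exact sq_h
  · exact sq_i

/-- The matrix of a generator. -/
def Mt (x : Fi22.Gen) : Matrix (Fin 78) (Fin 78) (ZMod 13) := toMat (Gc x)

theorem rp_Gc (x : Fi22.Gen) : Rp (Gc x) (Mt x) := ⟨good_Gc x, rfl⟩

theorem Mt_sq (x : Fi22.Gen) : Mt x * Mt x = 1 :=
  rp_eq ((rp_Gc x).mul (rp_Gc x)) rp_id (sq_Gc x)

/-- The generators as units. -/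
noncomputable def Ug (x : Fi22.Gen) : GL (Fin 78) (ZMod 13) := ⟨Mt x, Mt x, Mt_sq x, Mt_sq x⟩

theorem Ug_val (x : Fi22.Gen) : (Ug x : Matrix (Fin 78) (Fin 78) (ZMod 13)) = Mt x := rfl

theorem Ug_sq (x : Fi22.Gen) : Ug x * Ug x = 1 := Units.ext (Mt_sq x)

theorem Ug_comm {x y : Fi22.Gen} (h : mm (Gc x) (Gc y) = mm (Gc y) (Gc x)) : Ug x * Ug y = Ug y * Ug x :=
  Units.ext (rp_eq ((rp_Gc x).mul (rp_Gc y)) ((rp_Gc y).mul (rp_Gc x)) h)

theorem Ug_br {x y : Fi22.Gen} (h : mm (mm (Gc x) (Gc y)) (Gc x) = mm (mm (Gc y) (Gc x)) (Gc y)) :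
    Ug x * Ug y * Ug x = Ug y * Ug x * Ug y :=
  Units.ext (rp_eq (((rp_Gc x).mul (rp_Gc y)).mul (rp_Gc x)) (((rp_Gc y).mul (rp_Gc x)).mul (rp_Gc y)) h)

section Grp
variable {G : Type*} [Group G] {x y : G}

theorem rel_one (hx : x * x = 1) : (x * x) ^ 1 = 1 := by rw [pow_one, hx]

theorem rel_two (hx : x * x = 1) (hy : y * y = 1) (h : x * y = y * x) : (x * y) ^ 2 = 1 := by
  rw [pow_two]
  calc x * y * (x * y) = x * (y * x) * y := by group
    _ = x * (x * y) * y := by rw [h]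
    _ = (x * x) * (y * y) := by group
    _ = 1 := by rw [hx, hy, one_mul]

theorem rel_three (hx : x * x = 1) (hy : y * y = 1) (h : x * y * x = y * x * y) : (x * y) ^ 3 = 1 := by
  have e : (x * y) ^ 3 = (x * y * x) * (y * x * y) := by
    simp only [pow_succ, pow_zero, one_mul, mul_assoc]
  rw [e, ← h]
  calc x * y * x * (x * y * x) = x * y * (x * x) * y * x := by group
    _ = x * (y * y) * x := by rw [hx, mul_one]; group
    _ = x * x := by rw [hy, mul_one]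
    _ = 1 := hx

theorem rel_three' (hx : x * x = 1) (hy : y * y = 1) (h : x * y * x = y * x * y) : (y * x) ^ 3 = 1 :=
  rel_three hy hx h.symm

end Grp

theorem lab {x y : Fi22.Gen} {n : ℕ} (h : coxLabel Fi22.edges x y = n) (h2 : (Ug x * Ug y) ^ n = 1) :
    (Ug x * Ug y) ^ coxLabel Fi22.edges x y = 1 := by
  rw [h]
  exact h2

theorem Ug_rel (x y : Fi22.Gen) : (Ug x * Ug y) ^ coxLabel Fi22.edges x y = 1 := by
  cases x <;> cases y
  · exact lab (n := 1) (by decide) (rel_one (G := GL (Fin 78) (ZMod 13)) (Ug_sq _))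
  · exact lab (n := 3) (by decide) (rel_three (G := GL (Fin 78) (ZMod 13)) (Ug_sq _) (Ug_sq _) (Ug_br (x := .a) (y := .b) br_a_b))
  · exact lab (n := 2) (by decide) (rel_two (G := GL (Fin 78) (ZMod 13)) (Ug_sq _) (Ug_sq _) (Ug_comm (x := .a) (y := .c) cm_a_c))
  · exact lab (n := 2) (by decide) (rel_two (G := GL (Fin 78) (ZMod 13)) (Ug_sq _) (Ug_sq _) (Ug_comm (x := .a) (y := .d) cm_a_d))
  · exact lab (n := 2) (by decide) (rel_two (G := GL (Fin 78) (ZMod 13)) (Ug_sq _) (Ug_sq _) (Ug_comm (x := .a) (y := .e) cm_a_e))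
  · exact lab (n := 2) (by decide) (rel_two (G := GL (Fin 78) (ZMod 13)) (Ug_sq _) (Ug_sq _) (Ug_comm (x := .a) (y := .f) cm_a_f))
  · exact lab (n := 2) (by decide) (rel_two (G := GL (Fin 78) (ZMod 13)) (Ug_sq _) (Ug_sq _) (Ug_comm (x := .a) (y := .g) cm_a_g))
  · exact lab (n := 2) (by decide) (rel_two (G := GL (Fin 78) (ZMod 13)) (Ug_sq _) (Ug_sq _) (Ug_comm (x := .a) (y := .h) cm_a_h))
  · exact lab (n := 2) (by decide) (rel_two (G := GL (Fin 78) (ZMod 13)) (Ug_sq _) (Ug_sq _) (Ug_comm (x := .a) (y := .i) cm_a_i))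
  · exact lab (n := 3) (by decide) (rel_three' (G := GL (Fin 78) (ZMod 13)) (Ug_sq _) (Ug_sq _) (Ug_br (x := .a) (y := .b) br_a_b))
  · exact lab (n := 1) (by decide) (rel_one (G := GL (Fin 78) (ZMod 13)) (Ug_sq _))
  · exact lab (n := 3) (by decide) (rel_three (G := GL (Fin 78) (ZMod 13)) (Ug_sq _) (Ug_sq _) (Ug_br (x := .b) (y := .c) br_b_c))
  · exact lab (n := 2) (by decide) (rel_two (G := GL (Fin 78) (ZMod 13)) (Ug_sq _) (Ug_sq _) (Ug_comm (x := .b) (y := .d) cm_b_d))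
  · exact lab (n := 2) (by decide) (rel_two (G := GL (Fin 78) (ZMod 13)) (Ug_sq _) (Ug_sq _) (Ug_comm (x := .b) (y := .e) cm_b_e))
  · exact lab (n := 2) (by decide) (rel_two (G := GL (Fin 78) (ZMod 13)) (Ug_sq _) (Ug_sq _) (Ug_comm (x := .b) (y := .f) cm_b_f))
  · exact lab (n := 2) (by decide) (rel_two (G := GL (Fin 78) (ZMod 13)) (Ug_sq _) (Ug_sq _) (Ug_comm (x := .b) (y := .g) cm_b_g))
  · exact lab (n := 2) (by decide) (rel_two (G := GL (Fin 78) (ZMod 13)) (Ug_sq _) (Ug_sq _) (Ug_comm (x := .b) (y := .h) cm_b_h))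
  · exact lab (n := 2) (by decide) (rel_two (G := GL (Fin 78) (ZMod 13)) (Ug_sq _) (Ug_sq _) (Ug_comm (x := .b) (y := .i) cm_b_i))
  · exact lab (n := 2) (by decide) (rel_two (G := GL (Fin 78) (ZMod 13)) (Ug_sq _) (Ug_sq _) (Ug_comm (x := .c) (y := .a) cm_a_c.symm))
  · exact lab (n := 3) (by decide) (rel_three' (G := GL (Fin 78) (ZMod 13)) (Ug_sq _) (Ug_sq _) (Ug_br (x := .b) (y := .c) br_b_c))
  · exact lab (n := 1) (by decide) (rel_one (G := GL (Fin 78) (ZMod 13)) (Ug_sq _))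
  · exact lab (n := 3) (by decide) (rel_three (G := GL (Fin 78) (ZMod 13)) (Ug_sq _) (Ug_sq _) (Ug_br (x := .c) (y := .d) br_c_d))
  · exact lab (n := 2) (by decide) (rel_two (G := GL (Fin 78) (ZMod 13)) (Ug_sq _) (Ug_sq _) (Ug_comm (x := .c) (y := .e) cm_c_e))
  · exact lab (n := 2) (by decide) (rel_two (G := GL (Fin 78) (ZMod 13)) (Ug_sq _) (Ug_sq _) (Ug_comm (x := .c) (y := .f) cm_c_f))
  · exact lab (n := 2) (by decide) (rel_two (G := GL (Fin 78) (ZMod 13)) (Ug_sq _) (Ug_sq _) (Ug_comm (x := .c) (y := .g) cm_c_g))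
  · exact lab (n := 2) (by decide) (rel_two (G := GL (Fin 78) (ZMod 13)) (Ug_sq _) (Ug_sq _) (Ug_comm (x := .c) (y := .h) cm_c_h))
  · exact lab (n := 2) (by decide) (rel_two (G := GL (Fin 78) (ZMod 13)) (Ug_sq _) (Ug_sq _) (Ug_comm (x := .c) (y := .i) cm_c_i))
  · exact lab (n := 2) (by decide) (rel_two (G := GL (Fin 78) (ZMod 13)) (Ug_sq _) (Ug_sq _) (Ug_comm (x := .d) (y := .a) cm_a_d.symm))
  · exact lab (n := 2) (by decide) (rel_two (G := GL (Fin 78) (ZMod 13)) (Ug_sq _) (Ug_sq _) (Ug_comm (x := .d) (y := .b) cm_b_d.symm))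
  · exact lab (n := 3) (by decide) (rel_three' (G := GL (Fin 78) (ZMod 13)) (Ug_sq _) (Ug_sq _) (Ug_br (x := .c) (y := .d) br_c_d))
  · exact lab (n := 1) (by decide) (rel_one (G := GL (Fin 78) (ZMod 13)) (Ug_sq _))
  · exact lab (n := 3) (by decide) (rel_three (G := GL (Fin 78) (ZMod 13)) (Ug_sq _) (Ug_sq _) (Ug_br (x := .d) (y := .e) br_d_e))
  · exact lab (n := 2) (by decide) (rel_two (G := GL (Fin 78) (ZMod 13)) (Ug_sq _) (Ug_sq _) (Ug_comm (x := .d) (y := .f) cm_d_f))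
  · exact lab (n := 2) (by decide) (rel_two (G := GL (Fin 78) (ZMod 13)) (Ug_sq _) (Ug_sq _) (Ug_comm (x := .d) (y := .g) cm_d_g))
  · exact lab (n := 3) (by decide) (rel_three (G := GL (Fin 78) (ZMod 13)) (Ug_sq _) (Ug_sq _) (Ug_br (x := .d) (y := .h) br_d_h))
  · exact lab (n := 2) (by decide) (rel_two (G := GL (Fin 78) (ZMod 13)) (Ug_sq _) (Ug_sq _) (Ug_comm (x := .d) (y := .i) cm_d_i))
  · exact lab (n := 2) (by decide) (rel_two (G := GL (Fin 78) (ZMod 13)) (Ug_sq _) (Ug_sq _) (Ug_comm (x := .e) (y := .a) cm_a_e.symm))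
  · exact lab (n := 2) (by decide) (rel_two (G := GL (Fin 78) (ZMod 13)) (Ug_sq _) (Ug_sq _) (Ug_comm (x := .e) (y := .b) cm_b_e.symm))
  · exact lab (n := 2) (by decide) (rel_two (G := GL (Fin 78) (ZMod 13)) (Ug_sq _) (Ug_sq _) (Ug_comm (x := .e) (y := .c) cm_c_e.symm))
  · exact lab (n := 3) (by decide) (rel_three' (G := GL (Fin 78) (ZMod 13)) (Ug_sq _) (Ug_sq _) (Ug_br (x := .d) (y := .e) br_d_e))
  · exact lab (n := 1) (by decide) (rel_one (G := GL (Fin 78) (ZMod 13)) (Ug_sq _))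
  · exact lab (n := 3) (by decide) (rel_three (G := GL (Fin 78) (ZMod 13)) (Ug_sq _) (Ug_sq _) (Ug_br (x := .e) (y := .f) br_e_f))
  · exact lab (n := 2) (by decide) (rel_two (G := GL (Fin 78) (ZMod 13)) (Ug_sq _) (Ug_sq _) (Ug_comm (x := .e) (y := .g) cm_e_g))
  · exact lab (n := 2) (by decide) (rel_two (G := GL (Fin 78) (ZMod 13)) (Ug_sq _) (Ug_sq _) (Ug_comm (x := .e) (y := .h) cm_e_h))
  · exact lab (n := 2) (by decide) (rel_two (G := GL (Fin 78) (ZMod 13)) (Ug_sq _) (Ug_sq _) (Ug_comm (x := .e) (y := .i) cm_e_i))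
  · exact lab (n := 2) (by decide) (rel_two (G := GL (Fin 78) (ZMod 13)) (Ug_sq _) (Ug_sq _) (Ug_comm (x := .f) (y := .a) cm_a_f.symm))
  · exact lab (n := 2) (by decide) (rel_two (G := GL (Fin 78) (ZMod 13)) (Ug_sq _) (Ug_sq _) (Ug_comm (x := .f) (y := .b) cm_b_f.symm))
  · exact lab (n := 2) (by decide) (rel_two (G := GL (Fin 78) (ZMod 13)) (Ug_sq _) (Ug_sq _) (Ug_comm (x := .f) (y := .c) cm_c_f.symm))
  · exact lab (n := 2) (by decide) (rel_two (G := GL (Fin 78) (ZMod 13)) (Ug_sq _) (Ug_sq _) (Ug_comm (x := .f) (y := .d) cm_d_f.symm))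
  · exact lab (n := 3) (by decide) (rel_three' (G := GL (Fin 78) (ZMod 13)) (Ug_sq _) (Ug_sq _) (Ug_br (x := .e) (y := .f) br_e_f))
  · exact lab (n := 1) (by decide) (rel_one (G := GL (Fin 78) (ZMod 13)) (Ug_sq _))
  · exact lab (n := 3) (by decide) (rel_three (G := GL (Fin 78) (ZMod 13)) (Ug_sq _) (Ug_sq _) (Ug_br (x := .f) (y := .g) br_f_g))
  · exact lab (n := 2) (by decide) (rel_two (G := GL (Fin 78) (ZMod 13)) (Ug_sq _) (Ug_sq _) (Ug_comm (x := .f) (y := .h) cm_f_h))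
  · exact lab (n := 2) (by decide) (rel_two (G := GL (Fin 78) (ZMod 13)) (Ug_sq _) (Ug_sq _) (Ug_comm (x := .f) (y := .i) cm_f_i))
  · exact lab (n := 2) (by decide) (rel_two (G := GL (Fin 78) (ZMod 13)) (Ug_sq _) (Ug_sq _) (Ug_comm (x := .g) (y := .a) cm_a_g.symm))
  · exact lab (n := 2) (by decide) (rel_two (G := GL (Fin 78) (ZMod 13)) (Ug_sq _) (Ug_sq _) (Ug_comm (x := .g) (y := .b) cm_b_g.symm))
  · exact lab (n := 2) (by decide) (rel_two (G := GL (Fin 78) (ZMod 13)) (Ug_sq _) (Ug_sq _) (Ug_comm (x := .g) (y := .c) cm_c_g.symm))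
  · exact lab (n := 2) (by decide) (rel_two (G := GL (Fin 78) (ZMod 13)) (Ug_sq _) (Ug_sq _) (Ug_comm (x := .g) (y := .d) cm_d_g.symm))
  · exact lab (n := 2) (by decide) (rel_two (G := GL (Fin 78) (ZMod 13)) (Ug_sq _) (Ug_sq _) (Ug_comm (x := .g) (y := .e) cm_e_g.symm))
  · exact lab (n := 3) (by decide) (rel_three' (G := GL (Fin 78) (ZMod 13)) (Ug_sq _) (Ug_sq _) (Ug_br (x := .f) (y := .g) br_f_g))
  · exact lab (n := 1) (by decide) (rel_one (G := GL (Fin 78) (ZMod 13)) (Ug_sq _))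
  · exact lab (n := 2) (by decide) (rel_two (G := GL (Fin 78) (ZMod 13)) (Ug_sq _) (Ug_sq _) (Ug_comm (x := .g) (y := .h) cm_g_h))
  · exact lab (n := 2) (by decide) (rel_two (G := GL (Fin 78) (ZMod 13)) (Ug_sq _) (Ug_sq _) (Ug_comm (x := .g) (y := .i) cm_g_i))
  · exact lab (n := 2) (by decide) (rel_two (G := GL (Fin 78) (ZMod 13)) (Ug_sq _) (Ug_sq _) (Ug_comm (x := .h) (y := .a) cm_a_h.symm))
  · exact lab (n := 2) (by decide) (rel_two (G := GL (Fin 78) (ZMod 13)) (Ug_sq _) (Ug_sq _) (Ug_comm (x := .h) (y := .b) cm_b_h.symm))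
  · exact lab (n := 2) (by decide) (rel_two (G := GL (Fin 78) (ZMod 13)) (Ug_sq _) (Ug_sq _) (Ug_comm (x := .h) (y := .c) cm_c_h.symm))
  · exact lab (n := 3) (by decide) (rel_three' (G := GL (Fin 78) (ZMod 13)) (Ug_sq _) (Ug_sq _) (Ug_br (x := .d) (y := .h) br_d_h))
  · exact lab (n := 2) (by decide) (rel_two (G := GL (Fin 78) (ZMod 13)) (Ug_sq _) (Ug_sq _) (Ug_comm (x := .h) (y := .e) cm_e_h.symm))
  · exact lab (n := 2) (by decide) (rel_two (G := GL (Fin 78) (ZMod 13)) (Ug_sq _) (Ug_sq _) (Ug_comm (x := .h) (y := .f) cm_f_h.symm))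
  · exact lab (n := 2) (by decide) (rel_two (G := GL (Fin 78) (ZMod 13)) (Ug_sq _) (Ug_sq _) (Ug_comm (x := .h) (y := .g) cm_g_h.symm))
  · exact lab (n := 1) (by decide) (rel_one (G := GL (Fin 78) (ZMod 13)) (Ug_sq _))
  · exact lab (n := 3) (by decide) (rel_three (G := GL (Fin 78) (ZMod 13)) (Ug_sq _) (Ug_sq _) (Ug_br (x := .h) (y := .i) br_h_i))
  · exact lab (n := 2) (by decide) (rel_two (G := GL (Fin 78) (ZMod 13)) (Ug_sq _) (Ug_sq _) (Ug_comm (x := .i) (y := .a) cm_a_i.symm))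
  · exact lab (n := 2) (by decide) (rel_two (G := GL (Fin 78) (ZMod 13)) (Ug_sq _) (Ug_sq _) (Ug_comm (x := .i) (y := .b) cm_b_i.symm))
  · exact lab (n := 2) (by decide) (rel_two (G := GL (Fin 78) (ZMod 13)) (Ug_sq _) (Ug_sq _) (Ug_comm (x := .i) (y := .c) cm_c_i.symm))
  · exact lab (n := 2) (by decide) (rel_two (G := GL (Fin 78) (ZMod 13)) (Ug_sq _) (Ug_sq _) (Ug_comm (x := .i) (y := .d) cm_d_i.symm))
  · exact lab (n := 2) (by decide) (rel_two (G := GL (Fin 78) (ZMod 13)) (Ug_sq _) (Ug_sq _) (Ug_comm (x := .i) (y := .e) cm_e_i.symm))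
  · exact lab (n := 2) (by decide) (rel_two (G := GL (Fin 78) (ZMod 13)) (Ug_sq _) (Ug_sq _) (Ug_comm (x := .i) (y := .f) cm_f_i.symm))
  · exact lab (n := 2) (by decide) (rel_two (G := GL (Fin 78) (ZMod 13)) (Ug_sq _) (Ug_sq _) (Ug_comm (x := .i) (y := .g) cm_g_i.symm))
  · exact lab (n := 3) (by decide) (rel_three' (G := GL (Fin 78) (ZMod 13)) (Ug_sq _) (Ug_sq _) (Ug_br (x := .h) (y := .i) br_h_i))
  · exact lab (n := 1) (by decide) (rel_one (G := GL (Fin 78) (ZMod 13)) (Ug_sq _))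

theorem Ug_w1 : (Ug .d * Ug .c * Ug .b * Ug .d * Ug .e * Ug .f * Ug .d * Ug .h * Ug .i) ^ 10 = 1 :=
  Units.ext (by
    push_cast
    exact pow10_spec (((((((((rp_Gc .d).mul (rp_Gc .c)).mul (rp_Gc .b)).mul (rp_Gc .d)).mul (rp_Gc .e)).mul (rp_Gc .f)).mul (rp_Gc .d)).mul (rp_Gc .h)).mul (rp_Gc .i)) w1_rel)

theorem Ug_w2 : (Ug .a * Ug .b * Ug .c * Ug .d * Ug .e * Ug .f * Ug .h) ^ 9 = 1 :=
  Units.ext (by
    push_cast
    exact pow9_spec (((((((rp_Gc .a).mul (rp_Gc .b)).mul (rp_Gc .c)).mul (rp_Gc .d)).mul (rp_Gc .e)).mul (rp_Gc .f)).mul (rp_Gc .h)) w2_rel)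

theorem Ug_w3 : (Ug .b * Ug .c * Ug .d * Ug .e * Ug .f * Ug .g * Ug .h) ^ 9 = 1 :=
  Units.ext (by
    push_cast
    exact pow9_spec (((((((rp_Gc .b).mul (rp_Gc .c)).mul (rp_Gc .d)).mul (rp_Gc .e)).mul (rp_Gc .f)).mul (rp_Gc .g)).mul (rp_Gc .h)) w3_rel)

theorem Ug_rels : ∀ r ∈ coxRelators Fi22.edges ∪ {r | r ∈ Fi22.extra}, FreeGroup.lift Ug r = 1 := by
  intro r hr
  rcases hr with ⟨x, -, y, -, rfl⟩ | hr
  · rw [map_pow, map_mul, FreeGroup.lift_apply_of, FreeGroup.lift_apply_of]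
    exact Ug_rel x y
  · have hr' : r ∈ Fi22.extra := hr
    simp only [Fi22.extra, List.mem_cons, List.not_mem_nil, or_false] at hr'
    rcases hr' with rfl | rfl | rfl
    · simp only [map_pow, map_mul, FreeGroup.lift_apply_of]
      exact Ug_w1
    · simp only [map_pow, map_mul, FreeGroup.lift_apply_of]
      exact Ug_w2
    · simp only [map_pow, map_mul, FreeGroup.lift_apply_of]
      exact Ug_w3

/-- The representation of the presented group. -/
noncomputable def repF : Fi22 →* GL (Fin 78) (ZMod 13) := PresentedGroup.toGroup (f := Ug) Ug_rels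

theorem repF_of (x : Fi22.Gen) : repF (PresentedGroup.of x) = Ug x := PresentedGroup.toGroup.of _

theorem Ug_a_ne : Ug .a ≠ 1 := by
  intro h
  have h1 : Mt .a = 1 := congrArg Units.val h
  have h2 := congrFun (congrFun h1 1) 0
  have h3 : Mt .a 1 0 = ((dgb XX (dgb RR ga 1) 0 : ℕ) : ZMod 13) := rfl
  rw [h3, a_entry] at h2
  revert h2
  decide

theorem repF_ne : repF (PresentedGroup.of .a) ≠ 1 := by
  rw [repF_of]
  exact Ug_a_ne

end Cfsg.Agent.Lib.Fi78
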